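import Mathlib
import Cfsg.Agent.H229.RIM.MinDef
import Cfsg.Agent.H57.RIM.Field

/-!
# S4816, case B with one component: stabilizers of index divisible by `p`

* `exists_over_glue`: `E` normal in `G`, `Z` central, `ψ` and `l` agree on `E ⊓ Z`: some irreducible character of `G` lies over both;
* `caseB1_out`: in `CaseB1 p Z E l` the stabilizers of all characters of `E` over `l` have index prime to `p`;
* `caseB1_psl2`: `CaseB1`, `E / Z(E) = PSL(2, F)`, `F` of odd characteristic: `p` does not divide `|G : E Z|`.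
-/

set_option autoImplicit false
set_option linter.unusedSectionVars false

open Cfsg
open scoped ComplexConjugate

namespace Cfsg.Agent.H57.RIM

open Cfsg.Agent.H672 Cfsg.Agent.H586.GW Cfsg.Agent.H229.RIM
open Cfsg.Agent.Characters.Core (isIrr_isClassFunction isIrr_apply_one_ne_zero classInner_conj_symm isIrr_isCharacter)
open Cfsg.Agent.CharactersDeep.NormalInd

universe u v

theorem norm_lin {A : Type*} [Group A] [Finite A] (l : A →* ℂˣ) (a : A) : ((l a : ℂˣ) : ℂ) * conj ((l a : ℂˣ) : ℂ) = 1 := by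
  have h1 : ((l a : ℂˣ) : ℂ) ^ Nat.card A = 1 := by
    rw [← Units.val_pow_eq_pow_val, ← map_pow, pow_card_eq_one', map_one, Units.val_one]
  have h2 : ‖((l a : ℂˣ) : ℂ)‖ = 1 := Complex.norm_eq_one_of_pow_eq_one h1 Nat.card_pos.ne'
  rw [Complex.mul_conj, Complex.normSq_eq_norm_sq, h2]
  norm_num

/-- **An irreducible character over `ψ` and over `l`.** -/
theorem exists_over_glue {G : Type u} [Group G] [Finite G] (E Z : Subgroup G) [E.Normal]
    (hZ : Z ≤ Subgroup.center G) (l : Z →* ℂˣ) {ψ : E → ℂ} (hψ : IsIrrCharacter E ψ)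
    (hov : ∀ (e : E) (he : (e : G) ∈ Z), ψ e = ψ 1 * l ⟨e, he⟩) :
    ∃ χ : G → ℂ, IsIrrCharacter G χ ∧ (∀ z : Z, χ z = χ 1 * l z) ∧ Over E.subtype χ ψ := by
  classical
  let _ := Fintype.ofFinite G
  let _ := Fintype.ofFinite E
  let _ := Fintype.ofFinite Z
  have hfin' : Finite (IrrCharacter G) := Characters.Core.finite_irr
  let hfin : Fintype (IrrCharacter G) := Fintype.ofFinite _
  let lam : Z → ℂ := fun z => ((l z : ℂˣ) : ℂ)
  have hne : classInner (indFun E ψ) (indFun Z lam) ≠ 0 := by
    rw [classInner_indFun E _ _ (indFun_isClassFunction Z _)]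
    have hval : ∀ k : E, ψ k * conj (indFun Z lam k) = if (k : G) ∈ Z then (Z.index : ℂ) * ψ 1 else 0 := by
      intro k
      split_ifs with hk
      · have h1 : indFun Z lam k = Z.index * lam ⟨k, hk⟩ := by
          rw [indFun_apply]
          have h2 : ∀ x : G, extendByZero Z lam (x⁻¹ * k * x) = lam ⟨k, hk⟩ := by
            intro x
            have h3 : x⁻¹ * (k : G) * x = k := by
              rw [Subgroup.mem_center_iff.1 (hZ hk) x⁻¹, inv_mul_cancel_right]
            rw [h3, extendByZero_of_mem Z _ hk]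
          simp only [h2, Finset.sum_const, Finset.card_univ, nsmul_eq_mul]
          have h5 : (Nat.card Z : ℂ) ≠ 0 := Nat.cast_ne_zero.2 Nat.card_pos.ne'
          rw [← Nat.card_eq_fintype_card, ← Z.card_mul_index]
          push_cast
          field_simp
        have h2 : ψ k = ψ 1 * lam ⟨k, hk⟩ := hov k hk
        rw [h1, h2, map_mul, Complex.conj_natCast]
        have h3 : lam ⟨k, hk⟩ * conj (lam ⟨k, hk⟩) = 1 := norm_lin l _
        linear_combination (ψ 1 * Z.index) * h3
      · have h1 : indFun Z lam k = 0 := by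
          rw [indFun_apply]
          have h2 : ∀ x : G, extendByZero Z lam (x⁻¹ * k * x) = 0 := by
            intro x
            apply extendByZero_of_not_mem
            intro h3
            apply hk
            have h4 := Subgroup.mem_center_iff.1 (hZ h3) x
            have e : x * (x⁻¹ * (k : G) * x) * x⁻¹ = k := by group
            rw [h4, mul_inv_cancel_right] at e
            rwa [e] at h3
          simp [h2]
        rw [h1, map_zero, mul_zero]
    unfold classInner
    simp only [hval]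
    refine mul_ne_zero (inv_ne_zero (Nat.cast_ne_zero.2 Nat.card_pos.ne')) ?_
    rw [← Finset.sum_filter, Finset.sum_const, nsmul_eq_mul]
    refine mul_ne_zero (Nat.cast_ne_zero.2 ?_) (mul_ne_zero (Nat.cast_ne_zero.2 Subgroup.index_ne_zero_of_finite)
      (isIrr_apply_one_ne_zero hψ))
    apply Finset.card_ne_zero_of_mem (a := (1 : E))
    simp
  rw [Characters.Core.classInner_eq_sum (indFun_isClassFunction E _) (indFun_isClassFunction Z _)] at hne
  obtain ⟨χ, -, hχ⟩ := Finset.exists_ne_zero_of_sum_ne_zero hne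
  have h1 := left_ne_zero_of_mul hχ
  have h2 : classInner (indFun Z lam) (χ : G → ℂ) ≠ 0 := by
    intro h0
    apply right_ne_zero_of_mul hχ
    rw [h0, map_zero]
  rw [classInner_indFun E _ _ (isIrr_isClassFunction χ.2)] at h1
  rw [classInner_indFun Z _ _ (isIrr_isClassFunction χ.2)] at h2
  have hsymm : ∀ {H : Subgroup G} [Fintype H] (a b : H → ℂ), classInner a b ≠ 0 → classInner b a ≠ 0 := by
    intro H _ a b hab h0
    apply hab
    rw [← classInner_conj_symm, h0, map_zero]
  refine ⟨χ, χ.2, ?_, ?_⟩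
  · have h3 : Over Z.subtype (χ : G → ℂ) (lf l) := (over_subtype_iff Z _ _).2 (hsymm _ _ h2)
    exact (RM.over_lin_iff Z.subtype (fun n => hZ n.2) χ.2 l).1 h3
  · exact (over_subtype_iff E _ _).2 (hsymm _ _ h1)

/-- In case B with one component the stabilizers of the characters of `E` over `l` have index prime to `p`. -/
theorem caseB1_out {p : ℕ} {G : Type u} [Group G] [Finite G] {Z E : Subgroup G} [E.Normal] {l : Z →* ℂˣ}
    (h : CaseB1 p Z E l) {ψ : E → ℂ} (hψ : IsIrrCharacter E ψ)
    (hov : ∀ (e : E) (he : (e : G) ∈ Z), ψ e = ψ 1 * l ⟨e, he⟩) : ¬ p ∣ (inertia E ψ).index := by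
  intro hd
  obtain ⟨χ, hχ, h1, h2⟩ := exists_over_glue E Z h.min.cen l hψ hov
  exact h.min.bad χ hχ h1 ((dvd_mul_of_dvd_left hd _).trans (index_mul_charDegree_dvd E hχ hψ h2))

/-- **Field automorphisms in case B.** -/
theorem caseB1_psl2 {p : ℕ} (hp : p.Prime) {F : Type v} [Field F] [Finite F] (h2 : (2 : F) ≠ 0)
    {G : Type u} [Group G] [Finite G] {Z E : Subgroup G} {l : Z →* ℂˣ} (h : CaseB1 p Z E l)
    (e : Nonempty ((E ⧸ Subgroup.center E) ≃* Matrix.ProjectiveSpecialLinearGroup (Fin 2) F)) :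
    ¬ p ∣ (E ⊔ Z).index := by
  intro hd
  obtain ⟨e⟩ := e
  have hEn : E.Normal := h.nE
  let N : Subgroup E := Z.subgroupOf E
  let φ : N →* ℂˣ := l.comp (MonoidHom.mk' (fun n : N => (⟨(n : E), n.2⟩ : Z)) fun _ _ => rfl)
  have hφ : Function.Injective φ := by
    intro a b hab
    have h3 : (⟨((a : E) : G), a.2⟩ : Z) = ⟨((b : E) : G), b.2⟩ := h.min.inj hab
    have h4 : ((a : E) : G) = ((b : E) : G) := congrArg (fun z : Z => (z : G)) h3
    exact Subtype.ext (Subtype.ext h4)
  obtain ⟨ψ, h3, h4, h5⟩ := rowOut_core E e hp h.min.odd h2 h.perf N φ (fun n hn => (h.cenE n).2 hn) hφ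
    (fun n hn => h.min.cen hn) (by rw [h.cent]; exact hd)
  exact caseB1_out h h3 (fun x hx => h4 ⟨x, hx⟩) h5

end Cfsg.Agent.H57.RIM
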